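import Cfsg.Agent.Lib.Schur.Cert.Fi24p2.D

set_option autoImplicit false
set_option maxRecDepth 100000
set_option maxHeartbeats 0
set_option Elab.async false

namespace Cfsg.Agent.Lib.Schur.Cert.Fi24p2

open Cfsg.Agent.Lib.Schur.PcMain Cfsg.Agent.Lib.Schur.PcBase Cfsg.Agent.Lib.Schur.PcCert Cfsg.Agent.Lib.Schur.PcSplit

theorem ck_fr28 : decide (fusVec C.sys C.fuel (C.lett fr_28.1) (C.letb fr_28.1) (Cert.foff fr_28.1) fr_28.2.1 fr_28.2.2.1 = some fr_28.2.2.2) = true := by decide +kernel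

theorem ck_fr29 : decide (fusVec C.sys C.fuel (C.lett fr_29.1) (C.letb fr_29.1) (Cert.foff fr_29.1) fr_29.2.1 fr_29.2.2.1 = some fr_29.2.2.2) = true := by decide +kernel

theorem ck_fr30 : decide (fusVec C.sys C.fuel (C.lett fr_30.1) (C.letb fr_30.1) (Cert.foff fr_30.1) fr_30.2.1 fr_30.2.2.1 = some fr_30.2.2.2) = true := by decide +kernel

theorem ck_fr31 : decide (fusVec C.sys C.fuel (C.lett fr_31.1) (C.letb fr_31.1) (Cert.foff fr_31.1) fr_31.2.1 fr_31.2.2.1 = some fr_31.2.2.2) = true := by decide +kernel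

theorem ck_fr32 : decide (fusVec C.sys C.fuel (C.lett fr_32.1) (C.letb fr_32.1) (Cert.foff fr_32.1) fr_32.2.1 fr_32.2.2.1 = some fr_32.2.2.2) = true := by decide +kernel

theorem ck_fr33 : decide (fusVec C.sys C.fuel (C.lett fr_33.1) (C.letb fr_33.1) (Cert.foff fr_33.1) fr_33.2.1 fr_33.2.2.1 = some fr_33.2.2.2) = true := by decide +kernel

theorem ck_fr34 : decide (fusVec C.sys C.fuel (C.lett fr_34.1) (C.letb fr_34.1) (Cert.foff fr_34.1) fr_34.2.1 fr_34.2.2.1 = some fr_34.2.2.2) = true := by decide +kernel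

theorem ck_fr35 : decide (fusVec C.sys C.fuel (C.lett fr_35.1) (C.letb fr_35.1) (Cert.foff fr_35.1) fr_35.2.1 fr_35.2.2.1 = some fr_35.2.2.2) = true := by decide +kernel

theorem ck_fr36 : decide (fusVec C.sys C.fuel (C.lett fr_36.1) (C.letb fr_36.1) (Cert.foff fr_36.1) fr_36.2.1 fr_36.2.2.1 = some fr_36.2.2.2) = true := by decide +kernel

theorem ck_fr37 : decide (fusVec C.sys C.fuel (C.lett fr_37.1) (C.letb fr_37.1) (Cert.foff fr_37.1) fr_37.2.1 fr_37.2.2.1 = some fr_37.2.2.2) = true := by decide +kernel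

theorem ck_fr38 : decide (fusVec C.sys C.fuel (C.lett fr_38.1) (C.letb fr_38.1) (Cert.foff fr_38.1) fr_38.2.1 fr_38.2.2.1 = some fr_38.2.2.2) = true := by decide +kernel

theorem ck_fr39 : decide (fusVec C.sys C.fuel (C.lett fr_39.1) (C.letb fr_39.1) (Cert.foff fr_39.1) fr_39.2.1 fr_39.2.2.1 = some fr_39.2.2.2) = true := by decide +kernel

theorem ck_fr40 : decide (fusVec C.sys C.fuel (C.lett fr_40.1) (C.letb fr_40.1) (Cert.foff fr_40.1) fr_40.2.1 fr_40.2.2.1 = some fr_40.2.2.2) = true := by decide +kernel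

theorem ck_fr41 : decide (fusVec C.sys C.fuel (C.lett fr_41.1) (C.letb fr_41.1) (Cert.foff fr_41.1) fr_41.2.1 fr_41.2.2.1 = some fr_41.2.2.2) = true := by decide +kernel


end Cfsg.Agent.Lib.Schur.Cert.Fi24p2
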