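import Cfsg.Agent.Lib.Schur.Cert.Fi24p2.D

set_option autoImplicit false
set_option maxRecDepth 100000
set_option maxHeartbeats 0
set_option Elab.async false

namespace Cfsg.Agent.Lib.Schur.Cert.Fi24p2

open Cfsg.Agent.Lib.Schur.PcMain Cfsg.Agent.Lib.Schur.PcBase Cfsg.Agent.Lib.Schur.PcCert Cfsg.Agent.Lib.Schur.PcSplit

theorem ck_fr42 : decide (fusVec C.sys C.fuel (C.lett fr_42.1) (C.letb fr_42.1) (Cert.foff fr_42.1) fr_42.2.1 fr_42.2.2.1 = some fr_42.2.2.2) = true := by decide +kernel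

theorem ck_fr43 : decide (fusVec C.sys C.fuel (C.lett fr_43.1) (C.letb fr_43.1) (Cert.foff fr_43.1) fr_43.2.1 fr_43.2.2.1 = some fr_43.2.2.2) = true := by decide +kernel

theorem ck_fr44 : decide (fusVec C.sys C.fuel (C.lett fr_44.1) (C.letb fr_44.1) (Cert.foff fr_44.1) fr_44.2.1 fr_44.2.2.1 = some fr_44.2.2.2) = true := by decide +kernel

theorem ck_fr45 : decide (fusVec C.sys C.fuel (C.lett fr_45.1) (C.letb fr_45.1) (Cert.foff fr_45.1) fr_45.2.1 fr_45.2.2.1 = some fr_45.2.2.2) = true := by decide +kernel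

theorem ck_fr46 : decide (fusVec C.sys C.fuel (C.lett fr_46.1) (C.letb fr_46.1) (Cert.foff fr_46.1) fr_46.2.1 fr_46.2.2.1 = some fr_46.2.2.2) = true := by decide +kernel

theorem ck_fr47 : decide (fusVec C.sys C.fuel (C.lett fr_47.1) (C.letb fr_47.1) (Cert.foff fr_47.1) fr_47.2.1 fr_47.2.2.1 = some fr_47.2.2.2) = true := by decide +kernel

theorem ck_fr48 : decide (fusVec C.sys C.fuel (C.lett fr_48.1) (C.letb fr_48.1) (Cert.foff fr_48.1) fr_48.2.1 fr_48.2.2.1 = some fr_48.2.2.2) = true := by decide +kernel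

theorem ck_fr49 : decide (fusVec C.sys C.fuel (C.lett fr_49.1) (C.letb fr_49.1) (Cert.foff fr_49.1) fr_49.2.1 fr_49.2.2.1 = some fr_49.2.2.2) = true := by decide +kernel

theorem ck_fr50 : decide (fusVec C.sys C.fuel (C.lett fr_50.1) (C.letb fr_50.1) (Cert.foff fr_50.1) fr_50.2.1 fr_50.2.2.1 = some fr_50.2.2.2) = true := by decide +kernel

theorem ck_fr51 : decide (fusVec C.sys C.fuel (C.lett fr_51.1) (C.letb fr_51.1) (Cert.foff fr_51.1) fr_51.2.1 fr_51.2.2.1 = some fr_51.2.2.2) = true := by decide +kernel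

theorem ck_fr52 : decide (fusVec C.sys C.fuel (C.lett fr_52.1) (C.letb fr_52.1) (Cert.foff fr_52.1) fr_52.2.1 fr_52.2.2.1 = some fr_52.2.2.2) = true := by decide +kernel

theorem ck_fr53 : decide (fusVec C.sys C.fuel (C.lett fr_53.1) (C.letb fr_53.1) (Cert.foff fr_53.1) fr_53.2.1 fr_53.2.2.1 = some fr_53.2.2.2) = true := by decide +kernel

theorem ck_fr54 : decide (fusVec C.sys C.fuel (C.lett fr_54.1) (C.letb fr_54.1) (Cert.foff fr_54.1) fr_54.2.1 fr_54.2.2.1 = some fr_54.2.2.2) = true := by decide +kernel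

theorem ck_fr55 : decide (fusVec C.sys C.fuel (C.lett fr_55.1) (C.letb fr_55.1) (Cert.foff fr_55.1) fr_55.2.1 fr_55.2.2.1 = some fr_55.2.2.2) = true := by decide +kernel

theorem ck_fr56 : decide (fusVec C.sys C.fuel (C.lett fr_56.1) (C.letb fr_56.1) (Cert.foff fr_56.1) fr_56.2.1 fr_56.2.2.1 = some fr_56.2.2.2) = true := by decide +kernel


end Cfsg.Agent.Lib.Schur.Cert.Fi24p2
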