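import Cfsg.Agent.Lib.Schur.Cert.Fi24p2.D

set_option autoImplicit false
set_option maxRecDepth 100000
set_option maxHeartbeats 0
set_option Elab.async false

namespace Cfsg.Agent.Lib.Schur.Cert.Fi24p2

open Cfsg.Agent.Lib.Schur.PcMain Cfsg.Agent.Lib.Schur.PcBase Cfsg.Agent.Lib.Schur.PcCert Cfsg.Agent.Lib.Schur.PcSplit

theorem hitem0 : chkItem Cfsg.Agent.Lib.TC.D.Fi24a.Tab.pt C wE wY base 0 = true := by decide +kernel

theorem hitem1 : chkItem Cfsg.Agent.Lib.TC.D.Fi24a.Tab.pt C wE wY base 1 = true := by decide +kernel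

theorem hitem2 : chkItem Cfsg.Agent.Lib.TC.D.Fi24a.Tab.pt C wE wY base 2 = true := by decide +kernel


end Cfsg.Agent.Lib.Schur.Cert.Fi24p2
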